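import Cfsg.Agent.H413.U45.Chief
import Cfsg.Agent.H413.U45.Fpf
import Cfsg.Agent.H380.UF.AutG2
import Cfsg.Agent.H422.GTwoFour
import Cfsg.Agent.H799.U45.Pair

/-!
# Groups with the prime graph of `PSU(4,5)`: the socle is not `G₂(4)` (helper413)
-/

set_option autoImplicit false

namespace Cfsg.Agent.H413.U45.ExclG

open Cfsg.Agent.Lib.FieldFour Cfsg.Agent.Lib.FieldFour.F4 Cfsg.Lie Cfsg.Agent.H161.Oct
open Cfsg.Agent.H422.GTwoFour (M8 mem_of ext')
open Cfsg.Agent.H799.U45 (Pair Big pair_of_pows big_of)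
open scoped Matrix

universe u

/-- a diagonal matrix -/
def mD (a b c : F4) : M8 := !![i, o, o, o, o, o, o, o; o, a, o, o, o, o, o, o; o, o, b, o, o, o, o, o; o, o, o, c, o, o, o, o;
  o, o, o, o, a⁻¹, o, o, o; o, o, o, o, o, b⁻¹, o, o; o, o, o, o, o, o, c⁻¹, o; o, o, o, o, o, o, o, i]
/-- a unipotent matrix -/
def mE (a b : F4) : M8 := !![i, o, o, o, o, o, o, o; o, i, o, a, o, o, o, o; o, o, i, b, o, o, o, o; o, o, o, i, o, o, o, o;
  o, o, o, o, i, o, o, o; o, o, o, o, o, i, o, o; o, o, o, o, a, b, i, o; o, o, o, o, o, o, o, i]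

/-- diagonal elements -/
def gD1 : GL (Fin 8) F4 := ⟨mD i w v, mD i v w, by decide +kernel, by decide +kernel⟩
/-- diagonal elements -/
def gD2 : GL (Fin 8) F4 := ⟨mD w v i, mD v w i, by decide +kernel, by decide +kernel⟩
/-- unipotent elements -/
def gE1 : GL (Fin 8) F4 := ⟨mE i o, mE i o, by decide +kernel, by decide +kernel⟩
/-- unipotent elements -/
def gE2 : GL (Fin 8) F4 := ⟨mE w o, mE w o, by decide +kernel, by decide +kernel⟩
/-- unipotent elements -/
def gE3 : GL (Fin 8) F4 := ⟨mE o i, mE o i, by decide +kernel, by decide +kernel⟩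

/-- elements of the group -/
def D1 : Cfsg.Lie.G2 F4 := ⟨gD1, mem_of _ (by decide +kernel)⟩
/-- elements of the group -/
def D2 : Cfsg.Lie.G2 F4 := ⟨gD2, mem_of _ (by decide +kernel)⟩
/-- elements of the group -/
def E1 : Cfsg.Lie.G2 F4 := ⟨gE1, mem_of _ (by decide +kernel)⟩
/-- elements of the group -/
def E2 : Cfsg.Lie.G2 F4 := ⟨gE2, mem_of _ (by decide +kernel)⟩
/-- elements of the group -/
def E3 : Cfsg.Lie.G2 F4 := ⟨gE3, mem_of _ (by decide +kernel)⟩

theorem ne' {a b : Cfsg.Lie.G2 F4} (h : a.1.1 ≠ b.1.1) : a ≠ b := fun e =>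
  h (congrArg (fun g : Cfsg.Lie.G2 F4 => g.1.1) e)

theorem pair3 : Pair 3 (Cfsg.Lie.G2 F4) := by
  refine pair_of_pows Nat.prime_three (x := D1) (y := D2) ?_ ?_ ?_ ?_ ?_
  · exact ext' (show mD i w v ^ 3 = 1 by decide +kernel)
  · exact ne' (show mD i w v ≠ 1 by decide +kernel)
  · exact ext' (show mD w v i ^ 3 = 1 by decide +kernel)
  · exact ext' (show mD i w v * mD w v i = mD w v i * mD i w v by decide +kernel)
  · intro k hk
    interval_cases k
    · exact ne' (show mD i w v ^ 0 ≠ mD w v i by decide +kernel)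
    · exact ne' (show mD i w v ^ 1 ≠ mD w v i by decide +kernel)
    · exact ne' (show mD i w v ^ 2 ≠ mD w v i by decide +kernel)

theorem big : Big (Cfsg.Lie.G2 F4) := by
  refine big_of (a := E1) (b := E2) (c := E3) ?_ ?_ ?_ ?_ ?_ ?_ ?_ ?_ ?_ ?_ ?_ ?_ ?_
  · exact ext' (show mE i o * mE i o = 1 by decide +kernel)
  · exact ext' (show mE w o * mE w o = 1 by decide +kernel)
  · exact ext' (show mE o i * mE o i = 1 by decide +kernel)
  · exact ext' (show mE i o * mE w o = mE w o * mE i o by decide +kernel)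
  · exact ext' (show mE i o * mE o i = mE o i * mE i o by decide +kernel)
  · exact ext' (show mE w o * mE o i = mE o i * mE w o by decide +kernel)
  · exact ne' (show mE i o ≠ 1 by decide +kernel)
  · exact ne' (show mE w o ≠ 1 by decide +kernel)
  · exact ne' (show mE i o ≠ mE w o by decide +kernel)
  · exact ne' (show mE o i ≠ 1 by decide +kernel)
  · exact ne' (show mE o i ≠ mE i o by decide +kernel)
  · exact ne' (show mE o i ≠ mE w o by decide +kernel)
  · exact ne' (show mE o i ≠ mE i o * mE w o by decide +kernel)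

theorem exists_emb {S : Type*} [Group S] (hS : Cfsg.Agent.OrdDiv.Real (.g2 4) S) :
    Nat.card S = 251596800 ∧ ∃ σ : ↥(Cfsg.Lie.G2 F4) →* S, Function.Injective σ := by
  obtain ⟨F, _, _, hF, ⟨e⟩⟩ := hS
  obtain ⟨f⟩ := Cfsg.Agent.H638.G2Iso.equiv (F := F)
  let φ : F4 →+* F := (equivOfCard hF).symm.toRingHom
  let Φ : ↥(Cfsg.Lie.G2 F4) →* ↥(Cfsg.Lie.G2 F) :=
    ((Matrix.GeneralLinearGroup.map φ).comp (Cfsg.Lie.G2 F4).subtype).codRestrict _
      (fun g => map_mem_G2 φ g.2)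
  have hΦ : Function.Injective Φ := by
    intro a b hab
    apply ext'
    have h1 : (a.1.1).map φ = (b.1.1).map φ :=
      congrArg (fun g : ↥(Cfsg.Lie.G2 F) => g.1.1) hab
    ext i j
    exact φ.injective (congrFun (congrFun h1 i) j)
  refine ⟨?_, (e.symm.toMonoidHom.comp f.toMonoidHom).comp Φ, ?_⟩
  · rw [Nat.card_congr e.toEquiv, ← Nat.card_congr f.toEquiv, Cfsg.Agent.H638.G2Iso.card_G2,
      Nat.card_eq_fintype_card, hF]
    norm_num
  · intro a b hab
    exact hΦ (f.injective (e.symm.injective hab))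

theorem no_g24 {G : Type u} [Group G] [Finite G] (hG : Gr G) (K : Subgroup G) [K.Normal] (S : Subgroup (G ⧸ K))
    (hS : Sec G K S) : ¬ Cfsg.Agent.OrdDiv.Real (.g2 4) S := by
  intro hR
  have hSn := hS.normal
  obtain ⟨hcS, σ, hσ⟩ := exists_emb hR
  have hp2 : Nat.Prime 2 := by norm_num
  have hp3 : Nat.Prime 3 := by norm_num
  have hp7 : Nat.Prime 7 := by norm_num
  have hp13 : Nat.Prime 13 := by norm_num
  have h13 : ¬ 13 ∣ Nat.card K := by
    intro hd
    obtain ⟨x, y, hx, hy, hxy, hn⟩ := pair3.map σ hσ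
    have h1 := comm_mem K hp13 hp3 (by norm_num) (by norm_num) hd hG.no39 (x := (x : G ⧸ K)) (y := (y : G ⧸ K))
      (by rw [Subgroup.orderOf_coe, hx]) (by rw [Subgroup.orderOf_coe, hy]) (congrArg Subtype.val hxy)
    obtain ⟨k, hk⟩ := h1
    exact hn ⟨k, Subtype.ext hk⟩
  have h7 : ¬ 7 ∣ Nat.card K := by
    intro hd
    obtain ⟨E, hE, hc⟩ := big.map σ hσ
    have h1 := three_inv K hp7 (by norm_num) hd hG.no14 (E.map S.subtype) (by
      rintro - ⟨e, he, rfl⟩
      rw [← map_mul, hE e he, map_one])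
    rw [Subgroup.card_map_of_injective S.subtype_injective] at h1
    omega
  obtain ⟨V, _, _, _, ρ, hexp, h7f, x, hx, hxS, v, hv, hxv⟩ := Chief.chief13 hG K S hS h7 h13
    (by rw [hcS]; norm_num) (by rw [hcS]; norm_num)
    (Cfsg.Agent.H380.UF.AutG2.not_dvd_index S hR hS.cent hp13 (by norm_num))
    (Cfsg.Agent.H380.UF.AutG2.no26 S hR hS.cent)
  refine hv (Cfsg.Agent.H422.GTwoFour.fixed_zero_of_real hR (ρ.comp S.subtype) hexp ?_ ⟨x, hxS⟩ ?_ v ?_)
  · intro g hg
    exact h7f g (by rw [Subgroup.orderOf_coe, hg])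
  · rw [← hx, ← Subgroup.orderOf_coe]
  · exact hxv

end Cfsg.Agent.H413.U45.ExclG
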